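import Cfsg.Agent.Lib.Helper8.Core0.S0C

/-! REE ladder, rung F1152 (helper36). -/

set_option autoImplicit false

namespace Cfsg.Agent.Lib.Helper8.Core0

open Cfsg.Agent.Lib.Helper46 Matrix

namespace ReeFull

variable {G : Type*} [Group G] {K : Type*} [Field K] (D : ReeFull G K)

/-- the homomorphism `Z₂ → G` onto `⟨j⟩`. -/
def f1152_eps : Multiplicative (ZMod 2) →* G where
  toFun e := D.j ^ (Multiplicative.toAdd e).val
  map_one' := by simp
  map_mul' := by
    intro a b
    have h2 : D.j ^ 2 = 1 := by rw [pow_two]; exact D.j_sq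
    rw [← pow_add, toAdd_mul, ZMod.val_add, ← pow_eq_pow_mod _ h2]

theorem f1152_eps_cases (e : Multiplicative (ZMod 2)) :
    (e = 1 ∧ D.f1152_eps e = 1) ∨ D.f1152_eps e = D.j := by
  have h : (Multiplicative.toAdd e).val < 2 := ZMod.val_lt _
  have h' : (Multiplicative.toAdd e).val = 0 ∨ (Multiplicative.toAdd e).val = 1 := by omega
  rcases h' with h0 | h1
  · left
    refine ⟨?_, ?_⟩
    · have : Multiplicative.toAdd e = 0 := (ZMod.val_eq_zero _).1 h0
      exact Multiplicative.toAdd.injective this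
    · show D.j ^ (Multiplicative.toAdd e).val = 1
      rw [h0, pow_zero]
  · right
    show D.j ^ (Multiplicative.toAdd e).val = D.j
    rw [h1, pow_one]

theorem f1152_eps_one : D.f1152_eps (Multiplicative.ofAdd 1) = D.j := by
  show D.j ^ (1 : ZMod 2).val = D.j
  have : (1 : ZMod 2).val = 1 := rfl
  rw [this, pow_one]

/-- the homomorphism `PSL₂(K) → G` induced by `φ`. -/
def f1152_phi : Matrix.ProjectiveSpecialLinearGroup (Fin 2) K →* G :=
  QuotientGroup.lift (Subgroup.center (SpecialLinearGroup (Fin 2) K)) D.φ (by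
    intro s hs
    exact D.φ_eq_one_iff.2 (eq_one_or_negOne_of_mem_center s hs))

theorem f1152_phi_mk (s : SpecialLinearGroup (Fin 2) K) :
    D.f1152_phi (QuotientGroup.mk s) = D.φ s := rfl

theorem f1152_comm (e : Multiplicative (ZMod 2)) (s : Matrix.ProjectiveSpecialLinearGroup (Fin 2) K) :
    Commute (D.f1152_eps e) (D.f1152_phi s) := by
  obtain ⟨s, rfl⟩ := QuotientGroup.mk_surjective s
  rw [D.f1152_phi_mk]
  rcases D.f1152_eps_cases e with ⟨-, h⟩ | h
  · rw [h]; exact Commute.one_left _
  · rw [h]; exact (D.φ_comm_j s).symm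

/-- the product homomorphism. -/
def f1152_F : Multiplicative (ZMod 2) × Matrix.ProjectiveSpecialLinearGroup (Fin 2) K →* G :=
  MonoidHom.noncommCoprod D.f1152_eps D.f1152_phi D.f1152_comm

theorem f1152_F_apply (e : Multiplicative (ZMod 2)) (s : SpecialLinearGroup (Fin 2) K) :
    D.f1152_F (e, QuotientGroup.mk s) = D.f1152_eps e * D.φ s := rfl

theorem f1152_F_mem (p : Multiplicative (ZMod 2) × Matrix.ProjectiveSpecialLinearGroup (Fin 2) K) :
    D.f1152_F p ∈ Subgroup.centralizer ({D.j} : Set G) := by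
  obtain ⟨e, s⟩ := p
  obtain ⟨s, rfl⟩ := QuotientGroup.mk_surjective s
  rw [D.f1152_F_apply, Subgroup.mem_centralizer_singleton_iff]
  rcases D.f1152_eps_cases e with ⟨-, h⟩ | h
  · rw [h, one_mul]; exact D.φ_comm_j s
  · rw [h, mul_assoc, D.φ_comm_j s]

/-- first half of S1152 -/
theorem F1152 : Nonempty (↥(Subgroup.centralizer ({D.j} : Set G)) ≃*
    Multiplicative (ZMod 2) × Matrix.ProjectiveSpecialLinearGroup (Fin 2) K) := by
  let F := D.f1152_F.codRestrict (Subgroup.centralizer ({D.j} : Set G)) D.f1152_F_mem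
  have hbij : Function.Bijective F := by
    constructor
    · rw [injective_iff_map_eq_one]
      rintro ⟨e, s⟩ h
      obtain ⟨s, rfl⟩ := QuotientGroup.mk_surjective s
      have h1 : D.f1152_eps e * D.φ s = 1 := congrArg Subtype.val h
      rcases D.f1152_eps_cases e with ⟨he, h2⟩ | h2
      · rw [h2, one_mul] at h1
        have hs : (QuotientGroup.mk s : Matrix.ProjectiveSpecialLinearGroup (Fin 2) K) = 1 := by
          rw [QuotientGroup.eq_one_iff]
          rcases D.φ_eq_one_iff.1 h1 with rfl | rfl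
          · exact one_mem _
          · exact negOne_mem_center
        rw [he, hs]; rfl
      · exfalso
        rw [h2] at h1
        apply D.φ_ne_j s
        calc D.φ s = D.j * (D.j * D.φ s) := by rw [← mul_assoc, D.j_sq, one_mul]
          _ = D.j := by rw [h1, mul_one]
    · rintro ⟨g, hg⟩
      rw [Subgroup.mem_centralizer_singleton_iff] at hg
      obtain ⟨s, rfl | rfl⟩ := D.cent_j_eq hg
      · refine ⟨(1, QuotientGroup.mk s), Subtype.ext ?_⟩
        show D.f1152_eps 1 * D.φ s = D.φ s
        rw [map_one, one_mul]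
      · refine ⟨(Multiplicative.ofAdd 1, QuotientGroup.mk s), Subtype.ext ?_⟩
        show D.f1152_eps (Multiplicative.ofAdd 1) * D.φ s = D.j * D.φ s
        rw [D.f1152_eps_one]
  exact ⟨(MulEquiv.ofBijective F hbij).symm⟩

end ReeFull

end Cfsg.Agent.Lib.Helper8.Core0
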