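import Cfsg.Agent.Lib.Helper8.ReeSL2
import Cfsg.Agent.Lib.Helper8.Core0.F1152

/-! Core0: the small Ree groups (all m ≥ 0) as instances of `Core0.ReeFull`; S1152. -/

set_option autoImplicit false
set_option linter.unusedSectionVars false
set_option maxRecDepth 100000

namespace Cfsg.Agent.Lib.Helper8.Core0

open Cfsg.Lie Matrix Cfsg.Agent.Lib.Helper23 Cfsg.Agent.Lib.Helper45 Cfsg.Agent.Lib.Helper22
open Cfsg.Agent.Lib.Helper46 Cfsg.Agent.Lib.Helper85

variable {K : Type*} [Field K] [CharP K 3] [Fintype K] {m : ℕ} (hK : Fintype.card K = 3 ^ (2 * m + 1))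
  (b : Bundle chevG2 K) (α : ↥(chevG2.group K) ≃* ↥(chevG2.group K))
  (hα : ∀ r < 12, ∀ t : K,
    (α ⟨b.hA.X r t, b.hA.X_mem_group r t⟩ : GL chevG2.Idx K) = b.hA.X (isoRhoG2 r) (t ^ isoLamG2 r))

/-- the small Ree group as an instance of `ReeData`. -/
noncomputable def reeData : ReeData ↥(twistedG2 K (3 ^ m)) K where
  ψ := reePs K m
  U t u v := ⟨reeU b.hA m t u v, reeU_mem' b.hA m t u v⟩
  H := reeHG hK b
  n := ⟨b.hA.nword reeOm, ree_n0_mem b.hA m⟩
  ψψ := reePs_reePs hK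
  three := three_eq_zero
  U_mul t u v t' u' v' := Subtype.ext (reeU_mul b.hA hK t u v t' u' v')
  U_inj t u v t' u' v' h := reeU_inj b (congrArg Subtype.val h)
  H_conj z t u v := by
    apply Subtype.ext
    have h := reeH_conj_reeU hK b α hα (reeWt K m z).ne_zero t u v
    rw [chi6_wt hK, chi10_wt hK, reeWt_val] at h
    exact h
  n_H z := by
    have hS := sharpBN_of_mem K (D := chevG2) (by simp)
    have h1 : b.hA.nword reeOm * reeH b.hA m ((reeWt K m z : Kˣ) : K) * (b.hA.nword reeOm)⁻¹ ∈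
        chevG2.diagonalSubgroup K ⊓ twistedG2 K (3 ^ m) :=
      ⟨hS.H_norm _ (b.hA.nword_mem_mono b.hR reeOm_lt) _ (reeH_mem_diag b.hA (reeWt K m z).ne_zero),
        Subgroup.mul_mem _ (Subgroup.mul_mem _ (ree_n0_mem b.hA m) (reeH_mem hK b.hA (reeWt K m z).ne_zero))
          (Subgroup.inv_mem _ (ree_n0_mem b.hA m))⟩
    obtain ⟨y, hy, e⟩ := (mem_reeH1_iff hK b α hα _).1 h1
    obtain ⟨z', hz'⟩ := exists_reeHG hK b hy
    exact ⟨z', Subtype.ext (e.trans hz')⟩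
  n_H' z := by
    have hS := sharpBN_of_mem K (D := chevG2) (by simp)
    have h1 : (b.hA.nword reeOm)⁻¹ * reeH b.hA m ((reeWt K m z : Kˣ) : K) * b.hA.nword reeOm ∈
        chevG2.diagonalSubgroup K ⊓ twistedG2 K (3 ^ m) :=
      ⟨hS.H_norm' (b.hA.nword_mem_mono b.hR reeOm_lt) (reeH_mem_diag b.hA (reeWt K m z).ne_zero),
        Subgroup.mul_mem _ (Subgroup.mul_mem _ (Subgroup.inv_mem _ (ree_n0_mem b.hA m))
          (reeH_mem hK b.hA (reeWt K m z).ne_zero)) (ree_n0_mem b.hA m)⟩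
    obtain ⟨y, hy, e⟩ := (mem_reeH1_iff hK b α hα _).1 h1
    obtain ⟨z', hz'⟩ := exists_reeHG hK b hy
    exact ⟨z', Subtype.ext (e.trans hz')⟩
  cover := by
    rintro ⟨g, hg1⟩
    have hB : ∀ x ∈ chevG2.borelSubgroup K, x ∈ twistedG2 K (3 ^ m) →
        ∃ t u v, ∃ z : Kˣ, x = reeU b.hA m t u v * (reeHG hK b z : GL chevG2.Idx K) := by
      intro x hx hx1
      obtain ⟨u, hu, hu1, h, hh, hh1, rfl⟩ := ree_B1_split hK b α hα hx hx1
      obtain ⟨t, u', v, rfl⟩ := (mem_reeU1_iff hK b α hα _).1 ⟨hu, hu1⟩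
      obtain ⟨y, hy, rfl⟩ := (mem_reeH1_iff hK b α hα _).1 ⟨hh, hh1⟩
      obtain ⟨z, hz⟩ := exists_reeHG hK b hy
      exact ⟨t, u', v, z, by rw [hz]⟩
    rcases ree_cover hK b α hα hg1 with h | ⟨x, hx, hx1, u, hu, hu1, e⟩
    · left
      obtain ⟨t, u, v, z, e⟩ := hB g h hg1
      exact ⟨t, u, v, z, Subtype.ext e⟩
    · right
      obtain ⟨t, u₁, v, z, rfl⟩ := hB x hx hx1
      obtain ⟨t', u', v', rfl⟩ := (mem_reeU1_iff hK b α hα _).1 ⟨hu, hu1⟩
      exact ⟨t, u₁, v, z, t', u', v', Subtype.ext e⟩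
  uniq t u v z t' u' v' a b' c w a' b'' c' h := by
    have hS := sharpBN_of_mem K (D := chevG2) (by simp)
    have hn0N := b.hA.nword_mem_mono (F := K) b.hR reeOm_lt
    have h' : reeU b.hA m t u v * reeH b.hA m ((reeWt K m z : Kˣ) : K) * b.hA.nword reeOm * reeU b.hA m t' u' v' =
        reeU b.hA m a b' c * reeH b.hA m ((reeWt K m w : Kˣ) : K) * b.hA.nword reeOm * reeU b.hA m a' b'' c' :=
      congrArg Subtype.val h
    have hBm : ∀ (t u v : K) (z : Kˣ), reeU b.hA m t u v * reeH b.hA m ((reeWt K m z : Kˣ) : K) ∈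
        chevG2.borelSubgroup K := fun t u v z =>
      mul_mem (hS.U_le (reeU_mem_pos b.hA _ t u v)) (hS.H_le_B (reeH_mem_diag b.hA (reeWt K m z).ne_zero))
    obtain ⟨h1, h2⟩ := (hS.uniq _ _ _ _ _ _ (hBm t u v z) (hBm a b' c w) hn0N hn0N
      (by rw [ree_Umin b]; exact reeU_mem_pos b.hA _ _ _ _)
      (by rw [ree_Umin b]; exact reeU_mem_pos b.hA _ _ _ _) h').2 rfl
    obtain ⟨h3, h4⟩ := ree_UH_uniq b (reeU_mem_pos b.hA _ _ _ _) (reeU_mem_pos b.hA _ _ _ _)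
      (reeH_mem_diag b.hA (reeWt K m z).ne_zero) (reeH_mem_diag b.hA (reeWt K m w).ne_zero) h1
    exact ⟨Subtype.ext h3, reeWt_inj hK (Units.ext (reeH_inj b.hA (reeWt K m z).ne_zero
      (reeWt K m w).ne_zero h4)), Subtype.ext h2⟩
  uniqB t u v z a b' c w h := by
    have h' : reeU b.hA m t u v * reeH b.hA m ((reeWt K m z : Kˣ) : K) =
        reeU b.hA m a b' c * reeH b.hA m ((reeWt K m w : Kˣ) : K) := congrArg Subtype.val h
    obtain ⟨h3, h4⟩ := ree_UH_uniq b (reeU_mem_pos b.hA _ _ _ _) (reeU_mem_pos b.hA _ _ _ _)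
      (reeH_mem_diag b.hA (reeWt K m z).ne_zero) (reeH_mem_diag b.hA (reeWt K m w).ne_zero) h'
    exact ⟨Subtype.ext h3, reeWt_inj hK (Units.ext (reeH_inj b.hA (reeWt K m z).ne_zero
      (reeWt K m w).ne_zero h4))⟩
  disj t u v z a b' c w a' b'' c' h := by
    have hS := sharpBN_of_mem K (D := chevG2) (by simp)
    have h' : reeU b.hA m t u v * reeH b.hA m ((reeWt K m z : Kˣ) : K) =
        reeU b.hA m a b' c * reeH b.hA m ((reeWt K m w : Kˣ) : K) * b.hA.nword reeOm * reeU b.hA m a' b'' c' :=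
      congrArg Subtype.val h
    have hBm : ∀ (t u v : K) (z : Kˣ), reeU b.hA m t u v * reeH b.hA m ((reeWt K m z : Kˣ) : K) ∈
        chevG2.borelSubgroup K := fun t u v z =>
      mul_mem (hS.U_le (reeU_mem_pos b.hA _ t u v)) (hS.H_le_B (reeH_mem_diag b.hA (reeWt K m z).ne_zero))
    apply ree_n0_not_borel b
    have e : b.hA.nword reeOm = (reeU b.hA m a b' c * reeH b.hA m ((reeWt K m w : Kˣ) : K))⁻¹ *
        (reeU b.hA m a b' c * reeH b.hA m ((reeWt K m w : Kˣ) : K) * b.hA.nword reeOm * reeU b.hA m a' b'' c') *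
          (reeU b.hA m a' b'' c')⁻¹ := by group
    rw [e, ← h']
    exact mul_mem (mul_mem (inv_mem (hBm _ _ _ _)) (hBm _ _ _ _)) (inv_mem (hS.U_le (reeU_mem_pos b.hA _ _ _ _)))


/-- the small Ree group as an instance of `ReeFull`. -/
noncomputable def reeFull :
    ReeFull ↥(twistedG2 K (3 ^ m)) K where
  toReeData := reeData hK b α hα
  m := m
  hK := by rw [Nat.card_eq_fintype_card, hK]
  φ := reePhi b.hA m
  φ_uu t := by
    rw [uu_eq_up, reePhi_up]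
    exact Subtype.ext (slX_eq b.hA m t)
  φ_ww := Subtype.ext (reePhi_ww b.hA m)
  φ_dd z := by
    obtain ⟨z', hz'⟩ := exists_reeHG hK b (y := reePs K m z * z)
      (mul_ne_zero ((map_ne_zero _).2 z.ne_zero) z.ne_zero)
    exact ⟨z', Subtype.ext ((reePhi_dd hK b.hA z).trans hz')⟩
  n_sq := by
    have h1 : (⟨b.hA.nword reeOm, ree_n0_mem b.hA m⟩ : ↥(twistedG2 K (3 ^ m))) = reePhi b.hA m ww :=
      Subtype.ext (reePhi_ww b.hA m).symm
    show (⟨b.hA.nword reeOm, ree_n0_mem b.hA m⟩ : ↥(twistedG2 K (3 ^ m))) * ⟨b.hA.nword reeOm, ree_n0_mem b.hA m⟩ = 1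
    rw [h1, ← map_mul, ww_mul_ww]
    apply Subtype.ext
    rw [reePhi_dd hK]
    have e : reePs K m ((-1 : Kˣ) : K) * ((-1 : Kˣ) : K) = 1 := by simp
    rw [e]
    exact (reeHhom b.hA m).map_one


theorem eq_j {a : ↥(twistedG2 K (3 ^ m))}
    (haH : (a : GL chevG2.Idx K) ∈ chevG2.diagonalSubgroup K) (ha1 : a ≠ 1) (ha2 : a * a = 1) :
    a = (reeFull hK b α hα).j := by
  obtain ⟨y, hy, e⟩ := (mem_reeH1_iff hK b α hα _).1 ⟨haH, a.2⟩
  obtain ⟨z, hz⟩ := exists_reeHG hK b hy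
  have h1 : a = (reeFull hK b α hα).H z := Subtype.ext (e.trans hz)
  have h2 : z * z = 1 := by
    apply (reeFull hK b α hα).H_inj
    rw [map_mul, ← h1, ha2, map_one]
  rcases ReeFull.pk3_unit_sq h2 with rfl | rfl
  · exact absurd (by rw [h1, map_one]) ha1
  · exact h1

include hK b α hα in
theorem main1152 (a : ↥(twistedG2 K (3 ^ m)))
    (haH : (a : GL chevG2.Idx K) ∈ chevG2.diagonalSubgroup K) (ha1 : a ≠ 1) (ha2 : a * a = 1) :
    Nonempty (↥(Subgroup.centralizer {a}) ≃* Multiplicative (ZMod 2) ×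
        Matrix.ProjectiveSpecialLinearGroup (Fin 2) K) ∧
      ∀ S : Sylow 2 ↥(twistedG2 K (3 ^ m)), Nat.card S = 8 ∧ ∀ x ∈ S, x * x = 1 := by
  have haj := eq_j hK b α hα haH ha1 ha2
  refine ⟨by rw [haj]; exact (reeFull hK b α hα).F1152, fun S => ?_⟩
  obtain ⟨g, hg⟩ := (reeFull hK b α hα).sylow_conj_S0 S
  constructor
  · have h1 : Nat.card (S : Subgroup ↥(twistedG2 K (3 ^ m))) = 8 := by
      rw [hg, Subgroup.card_map_of_injective (MulAut.conj g).injective, (reeFull hK b α hα).card_S0]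
    exact h1
  · intro x hx
    have hx' : x ∈ (S : Subgroup ↥(twistedG2 K (3 ^ m))) := hx
    rw [hg] at hx'
    obtain ⟨y, hy, rfl⟩ := hx'
    have := (reeFull hK b α hα).S0_sq hy
    show (MulAut.conj g) y * (MulAut.conj g) y = 1
    rw [← map_mul, this, map_one]

end Cfsg.Agent.Lib.Helper8.Core0
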