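import Cfsg.Agent.Lib.Helper8.Core0.Abs
import Cfsg.Agent.Lib.Helper46.SL2Nonsplit
import Cfsg.Agent.Lib.Helper46.SL2Q8

/-!
# `ReeFull`: the abstract small Ree group with its `SL₂`

Base file of the REE ladder: `ReeData` (sharp Bruhat normal form) together with the homomorphism
`φ : SL₂(K) → G` onto the component of the centraliser of the involution `j = H (-1)`.
-/

set_option autoImplicit false

namespace Cfsg.Agent.Lib.Helper8.Core0

open Cfsg.Agent.Lib.Helper46 Matrix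

/-- a small Ree group over `K`, `|K| = 3 ^ (2 m + 1)`, `m ≥ 1`, in abstract form. -/
structure ReeFull (G : Type*) [Group G] (K : Type*) [Field K] extends ReeData G K where
  m : ℕ
  hK : Nat.card K = 3 ^ (2 * m + 1)
  φ : SpecialLinearGroup (Fin 2) K →* G
  φ_uu : ∀ t, φ (uu t) = U 0 t 0
  φ_ww : φ ww = n
  φ_dd : ∀ z : Kˣ, ∃ z' : Kˣ, φ (dd z) = H z'
  n_sq : n * n = 1

namespace ReeFull

variable {G : Type*} [Group G] {K : Type*} [Field K] (D : ReeFull G K)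

/-- the order of the field. -/
def q : ℕ := 3 ^ (2 * D.m + 1)

/-- the involution of the torus. -/
def j : G := D.H (-1)

/-- the torus. -/
def Hs : Subgroup G := D.H.range

/-- the Borel subgroup `U H`. -/
def Bs : Subgroup G where
  carrier := {g | ∃ x ∈ D.Us, ∃ z, g = x * D.H z}
  mul_mem' := by
    rintro _ _ ⟨x, hx, z, rfl⟩ ⟨y, hy, w, rfl⟩
    refine ⟨x * (D.H z * y * (D.H z)⁻¹), mul_mem hx (D.H_conj_mem z hy), z * w, ?_⟩
    rw [map_mul]; group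
  one_mem' := ⟨1, one_mem _, 1, by simp⟩
  inv_mem' := by
    rintro _ ⟨x, hx, z, rfl⟩
    refine ⟨(D.H z)⁻¹ * x⁻¹ * D.H z, D.H_conj_mem' z (inv_mem hx), z⁻¹, ?_⟩
    rw [map_inv]; group

/-- the root subgroup `{U 0 a 0}` centralised by `j`. -/
def UL : Subgroup G where
  carrier := {g | ∃ a, g = D.U 0 a 0}
  mul_mem' := by
    rintro _ _ ⟨a, rfl⟩ ⟨b, rfl⟩
    refine ⟨a + b, ?_⟩
    rw [D.U_mul]; congr 1 <;> simp
  one_mem' := ⟨0, D.U_zero.symm⟩
  inv_mem' := by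
    rintro _ ⟨a, rfl⟩
    refine ⟨-a, ?_⟩
    rw [D.U_inv]; congr 1 <;> simp

theorem mem_Hs {g : G} : g ∈ D.Hs ↔ ∃ z, D.H z = g := Iff.rfl

theorem mem_Bs {g : G} : g ∈ D.Bs ↔ ∃ x ∈ D.Us, ∃ z, g = x * D.H z := Iff.rfl

theorem mem_UL {g : G} : g ∈ D.UL ↔ ∃ a, g = D.U 0 a 0 := Iff.rfl

theorem j_sq : D.j * D.j = 1 := by
  unfold j
  rw [← map_mul]; simp

theorem j_ne_one : D.j ≠ 1 := by
  unfold j
  intro h
  have h1 : (-1 : Kˣ) = 1 := D.H_inj (by rw [h, map_one])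
  have h2 : (-1 : K) = 1 := by simpa using congrArg Units.val h1
  apply D.two_ne_zero'
  linear_combination -h2

theorem n_inv_eq : D.n⁻¹ = D.n := inv_eq_of_mul_eq_one_left D.n_sq

theorem Us_le_Bs : D.Us ≤ D.Bs := fun x hx => ⟨x, hx, 1, by simp⟩

theorem Hs_le_Bs : D.Hs ≤ D.Bs := by
  rintro _ ⟨z, rfl⟩
  exact ⟨1, one_mem _, z, by simp⟩

theorem UL_le_Us : D.UL ≤ D.Us := by
  rintro _ ⟨a, rfl⟩
  exact D.U_mem _ _ _

end ReeFull

end Cfsg.Agent.Lib.Helper8.Core0
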