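import Cfsg.Agent.Lib.Helper8.Core0.Lad
import Cfsg.Agent.Lib.Helper8.ConjUnion

/-!
# REE ladder: further definitions (Sylow 2-subgroup, the abelian subgroup `M` of order `q + 1`, types)
-/

set_option autoImplicit false

namespace Cfsg.Agent.Lib.Helper8.Core0

open Cfsg.Agent.Lib.Helper46 Matrix

/-- the union of the conjugates of the elements of `T` satisfying `P`. -/
def XP {G : Type*} [Group G] (T : Subgroup G) (P : G → Prop) : Set G :=
  {y | ∃ x t, t ∈ T ∧ P t ∧ y = x * t * x⁻¹}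

namespace ReeFull

variable {G : Type*} [Group G] {K : Type*} [Field K] (D : ReeFull G K)

include D in
theorem finK : Finite K := Nat.finite_of_card_ne_zero (by rw [D.hK]; positivity)

/-- `r = 3 ^ (m + 1)`, so `r ^ 2 = 3 q`. -/
def r : ℕ := 3 ^ (D.m + 1)

/-- an element of order `4` of `SL₂(K)` anticommuting with `ww`. -/
def sS : SpecialLinearGroup (Fin 2) K := mk2 1 1 1 (-1) (by linear_combination (-1 : K) * D.three)

/-- the image of `sS`: an involution. -/
def v : G := D.φ D.sS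

/-- the standard Sylow 2-subgroup `⟨j, n, v⟩`. -/
def S0 : Subgroup G := Subgroup.closure {D.j, D.n, D.v}

theorem exists_X0 : ∃ X₀ : SpecialLinearGroup (Fin 2) K, tr X₀ ^ 2 ≠ 4 ∧
    (∀ h, h * X₀ = X₀ * h → h ∈ Subgroup.zpowers X₀) ∧
    Nat.card (Subgroup.zpowers X₀) = D.q + 1 ∧
    (∀ g : SpecialLinearGroup (Fin 2) K, (∀ a : K, a ^ 2 - tr g * a + 1 ≠ 0) →
      ∃ h : SpecialLinearGroup (Fin 2) K, h * g * h⁻¹ ∈ Subgroup.zpowers X₀) := by
  have := D.finK
  letI := Fintype.ofFinite K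
  have hc : Fintype.card K = D.q := by rw [← Nat.card_eq_fintype_card, D.hK]; rfl
  have hodd : Fintype.card K % 2 = 1 := by
    rw [hc]; unfold q
    rw [Nat.pow_mod]; norm_num
  obtain ⟨X₀, h1, h2, h3, h4⟩ := nonsplit_torus (F := K) hodd
  exact ⟨X₀, h1, h2, by rw [h3, hc], h4⟩

/-- a generator of the non-split torus of `SL₂(K)`. -/
noncomputable def X0 : SpecialLinearGroup (Fin 2) K := D.exists_X0.choose

theorem X0_tr : tr D.X0 ^ 2 ≠ 4 := D.exists_X0.choose_spec.1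

theorem X0_cent {h : SpecialLinearGroup (Fin 2) K} (hh : h * D.X0 = D.X0 * h) : h ∈ Subgroup.zpowers D.X0 :=
  D.exists_X0.choose_spec.2.1 h hh

theorem X0_card : Nat.card (Subgroup.zpowers D.X0) = D.q + 1 := D.exists_X0.choose_spec.2.2.1

theorem X0_conj {g : SpecialLinearGroup (Fin 2) K} (hg : ∀ a : K, a ^ 2 - tr g * a + 1 ≠ 0) :
    ∃ h : SpecialLinearGroup (Fin 2) K, h * g * h⁻¹ ∈ Subgroup.zpowers D.X0 :=
  D.exists_X0.choose_spec.2.2.2 g hg

/-- the abelian subgroup `⟨j⟩ × φ(⟨X₀⟩)` of order `q + 1`. -/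
noncomputable def M : Subgroup G := Subgroup.zpowers D.j ⊔ (Subgroup.zpowers D.X0).map D.φ

/-- the subgroup `UL × ⟨j⟩` of order `2 q`. -/
def UJ : Subgroup G := D.UL ⊔ Subgroup.zpowers D.j

/-- non-identity elements of order dividing `q² - q + 1`. -/
def IsPi (g : G) : Prop := g ≠ 1 ∧ g ^ (D.q ^ 2 - D.q + 1) = 1

end ReeFull

end Cfsg.Agent.Lib.Helper8.Core0
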