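import Cfsg.Agent.Lib.Helper8.Core0.Lad

/-!
# REE ladder, package PK1: orders
-/

set_option autoImplicit false

namespace Cfsg.Agent.Lib.Helper8.Core0.ReeFull

open Cfsg.Agent.Lib.Helper46 Matrix

variable {G : Type*} [Group G] {K : Type*} [Field K] (D : ReeFull G K)

include D in
theorem pk1_finite_K : Finite K := by
  apply Nat.finite_of_card_ne_zero
  rw [D.hK]
  positivity

theorem pk1_card_K : Nat.card K = D.q := D.hK

/-- the parametrisation of `U` -/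
def pk1_eU : K × K × K → D.Us := fun a => ⟨D.U a.1 a.2.1 a.2.2, D.U_mem _ _ _⟩

theorem pk1_eU_bij : Function.Bijective D.pk1_eU := by
  constructor
  · rintro ⟨t, u, v⟩ ⟨t', u', v'⟩ h
    obtain ⟨h1, h2, h3⟩ := D.U_inj _ _ _ _ _ _ (congrArg Subtype.val h)
    simp only at h1 h2 h3
    rw [h1, h2, h3]
  · rintro ⟨_, t, u, v, rfl⟩
    exact ⟨(t, u, v), rfl⟩

theorem pk1_finite_Us : Finite D.Us := by
  have := D.pk1_finite_K
  exact Finite.of_surjective _ D.pk1_eU_bij.2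

theorem card_Us : Nat.card D.Us = D.q ^ 3 := by
  rw [← Nat.card_congr (Equiv.ofBijective _ D.pk1_eU_bij), Nat.card_prod, Nat.card_prod,
    D.pk1_card_K]
  ring

theorem card_UL : Nat.card D.UL = D.q := by
  rw [← D.pk1_card_K]
  symm
  apply Nat.card_congr
  refine Equiv.ofBijective (fun a => ⟨D.U 0 a 0, a, rfl⟩) ⟨?_, ?_⟩
  · intro a b h
    exact (D.U_inj _ _ _ _ _ _ (congrArg Subtype.val h)).2.1
  · rintro ⟨_, a, rfl⟩
    exact ⟨a, rfl⟩

theorem pk1_card_units : Nat.card Kˣ = D.q - 1 := by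
  rw [Nat.card_units, D.pk1_card_K]

theorem card_Hs : Nat.card D.Hs = D.q - 1 := by
  rw [← D.pk1_card_units]
  exact (Nat.card_congr (MonoidHom.ofInjective D.H_inj).toEquiv).symm

theorem card_Bs : Nat.card D.Bs = D.q ^ 3 * (D.q - 1) := by
  rw [← D.pk1_card_units, ← D.card_Us, ← Nat.card_prod]
  symm
  apply Nat.card_congr
  refine Equiv.ofBijective (fun a : D.Us × Kˣ => ⟨a.1 * D.H a.2, a.1, a.1.2, a.2, rfl⟩) ⟨?_, ?_⟩
  · rintro ⟨x, z⟩ ⟨y, w⟩ h
    obtain ⟨h1, h2⟩ := D.uniqB' x.2 y.2 (congrArg Subtype.val h)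
    exact Prod.ext (Subtype.ext h1) h2
  · rintro ⟨_, x, hx, z, rfl⟩
    exact ⟨(⟨x, hx⟩, z), rfl⟩

/-- the Bruhat parametrisation of `G` -/
def pk1_eG : (D.Us × Kˣ) ⊕ (D.Us × Kˣ × D.Us) → G :=
  Sum.elim (fun a => a.1 * D.H a.2) (fun a => a.1 * D.H a.2.1 * D.n * a.2.2)

theorem pk1_eG_bij : Function.Bijective D.pk1_eG := by
  constructor
  · rintro (⟨x, z⟩ | ⟨x, z, y⟩) (⟨x', z'⟩ | ⟨x', z', y'⟩) h
    · obtain ⟨h1, h2⟩ := D.uniqB' x.2 x'.2 h
      have h2' : z = z' := h2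
      rw [Subtype.ext h1, h2']
    · exact absurd h (D.disj' x.2 x'.2 y'.2)
    · exact absurd h.symm (D.disj' x'.2 x.2 y.2)
    · obtain ⟨h1, h2, h3⟩ := D.uniq' x.2 y.2 x'.2 y'.2 h
      have h2' : z = z' := h2
      rw [Subtype.ext h1, h2', Subtype.ext h3]
  · intro g
    rcases D.cover' g with ⟨x, hx, z, rfl⟩ | ⟨x, hx, z, y, hy, rfl⟩
    · exact ⟨Sum.inl (⟨x, hx⟩, z), rfl⟩
    · exact ⟨Sum.inr (⟨x, hx⟩, z, ⟨y, hy⟩), rfl⟩

include D in
theorem finite_G : Finite G := by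
  have := D.pk1_finite_K
  have := D.pk1_finite_Us
  exact Finite.of_surjective _ D.pk1_eG_bij.2

theorem card_G : Nat.card G = D.q ^ 3 * (D.q ^ 3 + 1) * (D.q - 1) := by
  have := D.pk1_finite_K
  have := D.pk1_finite_Us
  rw [← Nat.card_congr (Equiv.ofBijective _ D.pk1_eG_bij), Nat.card_sum, Nat.card_prod,
    Nat.card_prod, Nat.card_prod, D.card_Us, D.pk1_card_units]
  ring

end Cfsg.Agent.Lib.Helper8.Core0.ReeFull
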