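import Cfsg.Agent.Lib.Helper8.Core0.Lad
import Cfsg.Agent.Lib.Helper8.Core0.PK1

/-!
# REE ladder, package PK2: Borel facts
-/

set_option autoImplicit false

namespace Cfsg.Agent.Lib.Helper8.Core0.ReeFull

open Cfsg.Agent.Lib.Helper46 Matrix

variable {G : Type*} [Group G] {K : Type*} [Field K] (D : ReeFull G K)

theorem mem_Bs_of_conj {u g : G} (hu : u ∈ D.Us) (h1 : u ≠ 1) (h : g * u * g⁻¹ ∈ D.Bs) :
    g ∈ D.Bs := by
  rcases D.cover' g with hg | ⟨a, ha, z, b, hb, rfl⟩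
  · exact hg
  · exfalso
    have haz : a * D.H z ∈ D.Bs := ⟨a, ha, z, rfl⟩
    have h2 : D.n * (b * u * b⁻¹) * D.n⁻¹ ∈ D.Bs := by
      have e : D.n * (b * u * b⁻¹) * D.n⁻¹
          = (a * D.H z)⁻¹ * (a * D.H z * D.n * b * u * (a * D.H z * D.n * b)⁻¹) * (a * D.H z) := by
        group
      rw [e]
      exact mul_mem (mul_mem (inv_mem haz) h) haz
    obtain ⟨c, hc, w, hcw⟩ := h2
    have hu' : b * u * b⁻¹ ∈ D.Us := mul_mem (mul_mem hb hu) (inv_mem hb)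
    have h3 : 1 * D.H 1 * D.n * (b * u * b⁻¹) = c * D.H w * D.n * 1 := by
      rw [← hcw, map_one]; group
    have h4 := (D.uniq' (one_mem _) hu' hc (one_mem _) h3).2.2
    apply h1
    calc u = b⁻¹ * (b * u * b⁻¹) * b := by group
      _ = 1 := by rw [h4]; group

theorem cent_le_Bs {u g : G} (hu : u ∈ D.Us) (h1 : u ≠ 1) (h : g * u = u * g) : g ∈ D.Bs := by
  apply D.mem_Bs_of_conj hu h1
  rw [h, mul_inv_cancel_right]
  exact D.Us_le_Bs hu

theorem conj_to_H {x : G} (hx : x ∈ D.Us) {z : Kˣ} (hz : (z : K) ^ 2 ≠ 1) :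
    ∃ y ∈ D.Us, y * (x * D.H z) * y⁻¹ = D.H z := by
  have := D.pk1_finite_Us
  let f : D.Us → D.Us := fun x =>
    ⟨x * (D.H z * (x : G)⁻¹ * (D.H z)⁻¹), mul_mem x.2 (D.H_conj_mem z (inv_mem x.2))⟩
  have hf : Function.Injective f := by
    intro x y h
    have h' : (x : G) * (D.H z * (x : G)⁻¹ * (D.H z)⁻¹) = y * (D.H z * (y : G)⁻¹ * (D.H z)⁻¹) :=
      congrArg Subtype.val h
    have h1 : (y : G)⁻¹ * x = 1 := by
      apply D.fpf hz (mul_mem (inv_mem y.2) x.2)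
      have h2 : (y : G)⁻¹ * x = D.H z * ((y : G)⁻¹ * x) * (D.H z)⁻¹ := by
        calc (y : G)⁻¹ * x = (y : G)⁻¹ * (x * (D.H z * (x : G)⁻¹ * (D.H z)⁻¹)) *
              (D.H z * x * (D.H z)⁻¹) := by group
          _ = _ := by rw [h']; group
      calc D.H z * ((y : G)⁻¹ * x) = (D.H z * ((y : G)⁻¹ * x) * (D.H z)⁻¹) * D.H z := by group
        _ = _ := by rw [← h2]
    exact Subtype.ext (inv_mul_eq_one.1 h1).symm
  obtain ⟨x0, hx0⟩ := (Finite.injective_iff_surjective.1 hf) ⟨x, hx⟩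
  have hx0' : (x0 : G) * (D.H z * (x0 : G)⁻¹ * (D.H z)⁻¹) = x := congrArg Subtype.val hx0
  refine ⟨(x0 : G)⁻¹, inv_mem x0.2, ?_⟩
  rw [← hx0']
  group

theorem pk2_j_conj (t u v : K) : D.j * D.U t u v * D.j⁻¹ = D.U (-t) u (-v) := by
  unfold j
  rw [D.H_conj]
  congr 1
  · simp
  · simp
  · simp

theorem conj_to_jUL {x : G} (hx : x ∈ D.Us) :
    ∃ y ∈ D.Us, ∃ a, y * (x * D.j) * y⁻¹ = D.U 0 a 0 * D.j := by
  obtain ⟨t, u, v, rfl⟩ := hx
  refine ⟨D.U t 0 (v - u * t + t ^ 2 * D.ψ t), D.U_mem _ _ _, u - t * D.ψ t, ?_⟩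
  have e : ∀ y : G, y * (D.U t u v * D.j) * y⁻¹ = y * D.U t u v * (D.j * y⁻¹ * D.j⁻¹) * D.j := by
    intro y; group
  rw [e, D.U_inv, D.pk2_j_conj, D.U_mul, D.U_mul]
  have h3 := D.three
  congr 2
  · linear_combination t * h3
  · simp only [map_neg]; linear_combination (-(t * D.ψ t)) * h3
  · simp only [map_neg]; linear_combination (v - u * t + t ^ 2 * D.ψ t) * h3

end Cfsg.Agent.Lib.Helper8.Core0.ReeFull
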