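import Cfsg.Agent.Lib.Helper8.Core0.Lad
import Cfsg.Agent.Lib.Helper8.Core0.PK1

/-!
# REE ladder, package PK3: torus facts
-/

set_option autoImplicit false

namespace Cfsg.Agent.Lib.Helper8.Core0.ReeFull

open Cfsg.Agent.Lib.Helper46 Matrix

variable {G : Type*} [Group G] {K : Type*} [Field K] (D : ReeFull G K)

theorem pk3_unit_sq {z : Kˣ} (h : z * z = 1) : z = 1 ∨ z = -1 := by
  have h1 : (z : K) * z = 1 := by simpa using congrArg Units.val h
  rcases mul_self_eq_one_iff.1 h1 with h2 | h2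
  · left; exact Units.ext h2
  · right; exact Units.ext (by simpa using h2)

theorem n_j : D.n * D.j = D.j * D.n := by
  obtain ⟨z', hz'⟩ := D.n_H (-1)
  have h1 : D.H (z' * z') = 1 := by
    rw [map_mul, ← hz']
    have : D.n * D.H (-1) * D.n⁻¹ * (D.n * D.H (-1) * D.n⁻¹)
        = D.n * (D.H (-1) * D.H (-1)) * D.n⁻¹ := by group
    rw [this, ← map_mul]; simp
  have h2 : z' * z' = 1 := D.H_inj (by rw [h1, map_one])
  rcases pk3_unit_sq h2 with rfl | rfl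
  · exfalso
    rw [map_one] at hz'
    apply D.j_ne_one
    unfold j
    calc D.H (-1) = D.n⁻¹ * (D.n * D.H (-1) * D.n⁻¹) * D.n := by group
      _ = 1 := by rw [hz']; group
  · unfold j
    calc D.n * D.H (-1) = (D.n * D.H (-1) * D.n⁻¹) * D.n := by group
      _ = _ := by rw [hz']

theorem pk3_ww_dd (s : Kˣ) :
    (ww : SpecialLinearGroup (Fin 2) K) * dd s * ww⁻¹ = (dd s)⁻¹ := by
  apply ext2 <;>
    simp [mul_00, mul_01, mul_10, mul_11, inv_00, inv_01, inv_10, inv_11, ww, dd]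

theorem pk3_dd_uu (s : Kˣ) (t : K) : dd s * uu t * (dd s)⁻¹ = uu ((s : K) ^ 2 * t) := by
  apply ext2 <;>
    simp [mul_00, mul_01, mul_10, mul_11, inv_00, inv_01, inv_10, inv_11, uu, dd]
  ring

theorem pk3_n_dd {s w : Kˣ} (hw : D.φ (dd s) = D.H w) : D.n * D.H w * D.n⁻¹ = (D.H w)⁻¹ := by
  rw [← hw, ← D.φ_ww, ← map_inv, ← map_mul, ← map_mul, pk3_ww_dd, map_inv]

theorem pk3_weight {s w : Kˣ} (hw : D.φ (dd s) = D.H w) : (w : K) * D.ψ w = (s : K) ^ 2 := by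
  have h1 : D.H w * D.U 0 1 0 * (D.H w)⁻¹ = D.U 0 ((s : K) ^ 2 * 1) 0 := by
    rw [← hw, ← D.φ_uu, ← D.φ_uu, ← map_inv, ← map_mul, ← map_mul, pk3_dd_uu]
  rw [D.H_conj] at h1
  have := (D.U_inj _ _ _ _ _ _ h1).2.1
  simpa using this

theorem pk3_q_mod : D.q % 4 = 3 := by
  unfold q
  rw [pow_succ, pow_mul, Nat.mul_mod, Nat.pow_mod]
  norm_num

include D in
theorem pk3_pm_sq (z : Kˣ) : ∃ y : Kˣ, z = y ^ 2 ∨ z = - y ^ 2 := by
  obtain ⟨N, hN⟩ : ∃ N, D.q - 1 = 2 * (2 * N + 1) :=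
    ⟨(D.q - 3) / 4, by have := D.pk3_q_mod; omega⟩
  have h1 : z ^ (D.q - 1) = 1 := by rw [← D.pk1_card_units]; exact pow_card_eq_one'
  have h2 : (z ^ (2 * N + 1)) * (z ^ (2 * N + 1)) = 1 := by rw [← pow_add, ← two_mul, ← hN, h1]
  rcases pk3_unit_sq h2 with h3 | h3
  · refine ⟨z ^ (N + 1), Or.inl ?_⟩
    rw [← pow_mul]
    calc z = z ^ (2 * N + 1) * z := by rw [h3, one_mul]
      _ = z ^ ((N + 1) * 2) := by rw [← pow_succ]; congr 1; ring
  · refine ⟨(-z) ^ (N + 1), Or.inr ?_⟩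
    have h4 : (-z) ^ (2 * N + 1) = 1 := by rw [Odd.neg_pow ⟨N, rfl⟩, h3, neg_neg]
    rw [← pow_mul]
    have : -z = (-z) ^ ((N + 1) * 2) := by
      calc -z = (-z) ^ (2 * N + 1) * (-z) := by rw [h4, one_mul]
        _ = _ := by rw [← pow_succ]; congr 1; ring
    rw [← this, neg_neg]

/-- every torus element is `± φ (dd s)` -/
theorem pk3_exists (z : Kˣ) : ∃ s w : Kˣ, D.φ (dd s) = D.H w ∧ (z = w ∨ z = -w) := by
  obtain ⟨y, hy⟩ := D.pk3_pm_sq z
  obtain ⟨w, hw⟩ := D.φ_dd (Units.map (D.ψ : K →* K) y * y)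
  have h1 := D.pk3_weight hw
  have h2 : ((w * (y ^ 2)⁻¹ : Kˣ) : K) ^ 2 = 1 := by
    apply D.psi_u
    have hy0 : (y : K) ≠ 0 := y.ne_zero
    have hp : D.ψ (y : K) ≠ 0 := (map_ne_zero D.ψ).2 hy0
    rw [Units.val_mul, Units.val_inv_eq_inv_val, Units.val_pow_eq_pow_val, map_mul, map_inv₀,
      map_pow]
    rw [Units.val_mul, Units.coe_map] at h1
    simp only [MonoidHom.coe_coe] at h1
    field_simp
    linear_combination h1
  have h3 : (w * (y ^ 2)⁻¹) * (w * (y ^ 2)⁻¹) = 1 := Units.ext (by simpa [pow_two] using h2)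
  rcases pk3_unit_sq h3 with h4 | h4
  · have hwy : w = y ^ 2 := mul_inv_eq_one.1 h4
    refine ⟨_, w, hw, ?_⟩
    rw [hwy]
    exact hy
  · have hwy : w = - y ^ 2 := by
      rw [mul_inv_eq_iff_eq_mul] at h4
      simpa using h4
    refine ⟨_, w, hw, ?_⟩
    rw [hwy, neg_neg]
    exact hy.symm

theorem pk3_H_neg (w : Kˣ) : D.H (-w) = D.j * D.H w := by
  unfold j
  rw [← map_mul]; simp

theorem n_H_inv (z : Kˣ) : D.n * D.H z * D.n⁻¹ = D.H z⁻¹ := by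
  obtain ⟨s, w, hw, hz⟩ := D.pk3_exists z
  have h1 := D.pk3_n_dd hw
  rcases hz with rfl | rfl
  · rw [h1, map_inv]
  · have e2 : D.H (-w)⁻¹ = D.j * (D.H w)⁻¹ := by
      rw [← map_inv, ← D.pk3_H_neg, inv_neg]
    rw [e2, D.pk3_H_neg]
    calc D.n * (D.j * D.H w) * D.n⁻¹ = (D.n * D.j) * D.H w * D.n⁻¹ := by group
      _ = D.j * (D.n * D.H w * D.n⁻¹) := by rw [D.n_j]; group
      _ = _ := by rw [h1]

theorem pk3_n_H (z : Kˣ) : D.n * D.H z = D.H z⁻¹ * D.n := by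
  rw [← D.n_H_inv]; group

theorem pk3_sq_inv {z : Kˣ} (hz : (z : K) ^ 2 ≠ 1) : ((z⁻¹ : Kˣ) : K) ^ 2 ≠ 1 := by
  intro h
  apply hz
  have h1 : (z⁻¹) ^ 2 = (1 : Kˣ) := Units.ext (by simpa using h)
  have h2 : z ^ 2 = 1 := by
    rw [inv_pow, inv_eq_one] at h1
    exact h1
  simpa using congrArg Units.val h2

/-- the common computation for `cent_H` and `norm_H` -/
theorem pk3_norm {z z' : Kˣ} (hz : (z : K) ^ 2 ≠ 1) {g : G} (h : g * D.H z = D.H z' * g) :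
    (∃ w, g = D.H w ∧ z' = z) ∨ ∃ w, g = D.H w * D.n ∧ z' = z⁻¹ := by
  rcases D.cover' g with ⟨x, hx, w, rfl⟩ | ⟨x, hx, w, y, hy, rfl⟩
  · left
    have e1 : x * D.H w * D.H z = x * D.H (w * z) := by rw [map_mul]; group
    have e2 : D.H z' * (x * D.H w) = (D.H z' * x * (D.H z')⁻¹) * D.H (z' * w) := by
      rw [map_mul]; group
    rw [e1, e2] at h
    obtain ⟨h1, h2⟩ := D.uniqB' hx (D.H_conj_mem z' hx) h
    have hzz : z' = z := by
      rw [mul_comm] at h2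
      exact (mul_right_cancel h2).symm
    subst hzz
    have hx1 : x = 1 := by
      apply D.fpf hz hx
      calc D.H z' * x = (D.H z' * x * (D.H z')⁻¹) * D.H z' := by group
        _ = _ := by rw [← h1]
    exact ⟨w, by rw [hx1, one_mul], rfl⟩
  · right
    have e1 : x * D.H w * D.n * y * D.H z
        = x * D.H (w * z⁻¹) * D.n * ((D.H z)⁻¹ * y * D.H z) := by
      have : x * D.H w * D.n * y * D.H z
          = x * D.H w * (D.n * D.H z) * ((D.H z)⁻¹ * y * D.H z) := by group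
      rw [this, D.pk3_n_H, map_mul]; group
    have e2 : D.H z' * (x * D.H w * D.n * y)
        = (D.H z' * x * (D.H z')⁻¹) * D.H (z' * w) * D.n * y := by
      rw [map_mul]; group
    rw [e1, e2] at h
    obtain ⟨h1, h2, h3⟩ := D.uniq' hx (D.H_conj_mem' z hy) (D.H_conj_mem z' hx) hy h
    have hzz : z' = z⁻¹ := by
      rw [mul_comm] at h2
      exact (mul_right_cancel h2).symm
    subst hzz
    have hy1 : y = 1 := by
      apply D.fpf hz hy
      calc D.H z * y = D.H z * ((D.H z)⁻¹ * y * D.H z) := by rw [h3]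
        _ = _ := by group
    have hx1 : x = 1 := by
      apply D.fpf (pk3_sq_inv hz) hx
      calc D.H z⁻¹ * x = (D.H z⁻¹ * x * (D.H z⁻¹)⁻¹) * D.H z⁻¹ := by group
        _ = _ := by rw [← h1]
    exact ⟨w, by rw [hx1, hy1, one_mul, mul_one], rfl⟩

theorem cent_H {z : Kˣ} (hz : (z : K) ^ 2 ≠ 1) {g : G} (h : g * D.H z = D.H z * g) :
    g ∈ D.Hs := by
  rcases D.pk3_norm hz h with ⟨w, rfl, -⟩ | ⟨w, -, h2⟩
  · exact ⟨w, rfl⟩
  · exfalso
    apply hz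
    have h3 : z * z = 1 := by
      nth_rewrite 1 [h2]
      exact inv_mul_cancel z
    simpa [pow_two] using congrArg Units.val h3

theorem norm_H {z : Kˣ} (hz : (z : K) ^ 2 ≠ 1) {g : G} (h : g * D.H z * g⁻¹ ∈ D.Hs) :
    g ∈ D.Hs ∨ ∃ w, g = D.H w * D.n := by
  obtain ⟨z', hz'⟩ := h
  have h1 : g * D.H z = D.H z' * g := by rw [hz']; group
  rcases D.pk3_norm hz h1 with ⟨w, rfl, -⟩ | ⟨w, h2, -⟩
  · exact Or.inl ⟨w, rfl⟩
  · exact Or.inr ⟨w, h2⟩

theorem pk3_n_mem : D.n ∈ Subgroup.normalizer (D.Hs : Set G) := by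
  rw [Subgroup.mem_normalizer_iff]
  intro h
  constructor
  · rintro ⟨z, rfl⟩
    exact ⟨z⁻¹, (D.n_H_inv z).symm⟩
  · rintro ⟨z, hz⟩
    refine ⟨z⁻¹, ?_⟩
    rw [← D.n_H_inv, hz, D.n_inv_eq]
    have := D.n_sq
    calc D.n * (D.n * h * D.n) * D.n = (D.n * D.n) * h * (D.n * D.n) := by group
      _ = h := by rw [this]; group

end Cfsg.Agent.Lib.Helper8.Core0.ReeFull
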